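import Mathlib
import Cfsg.Agent.Base
import Cfsg.Agent.Lib.Cyc.Label
import Cfsg.Agent.Lib.Deg.Basic
import Cfsg.Agent.Lib.Char.Clifford

/-! The characters of a Frobenius group with abelian kernel and abelian complement. -/

set_option autoImplicit false
set_option linter.unusedSectionVars false
set_option linter.style.haveILetI false

namespace H35C

open Cfsg H33 H84 H85
open H35 hiding cj
open scoped ComplexConjugate H85.SubFin

variable {G : Type*} [Group G] [Fintype G] {p : ℕ} [hp : Fact p.Prime] {Q : Subgroup G}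
  [hQ : Q.Normal]

theorem exists_commutator_eq (hc : ∀ x ∈ Q, x ≠ 1 → Subgroup.centralizer {x} = Q) {g : G}
    (hg : g ∉ Q) {y : G} (hy : y ∈ Q) : ∃ x ∈ Q, g * x * g⁻¹ * x⁻¹ = y := by
  let f : Q → Q := fun x => ⟨g * x * g⁻¹ * (x : G)⁻¹,
    mul_mem (hQ.conj_mem _ x.2 g) (inv_mem x.2)⟩
  have hf : Function.Injective f := fun a b hab => by
    have h1 : g * a * g⁻¹ * (a : G)⁻¹ = g * b * g⁻¹ * (b : G)⁻¹ := congrArg Subtype.val hab
    by_contra hne
    refine hg (hc ((b : G)⁻¹ * a) (mul_mem (inv_mem b.2) a.2)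
      (fun h0 => hne (Subtype.ext (inv_mul_eq_one.1 h0).symm)) ▸ ?_)
    rw [Subgroup.mem_centralizer_singleton_iff]
    calc g * ((b : G)⁻¹ * a) = g * (b : G)⁻¹ * g⁻¹ * (g * a * g⁻¹ * (a : G)⁻¹) * a * g := by group
      _ = _ := by rw [h1]; group
  obtain ⟨x, hx⟩ := Finite.surjective_of_injective hf ⟨y, hy⟩
  exact ⟨x, x.2, congrArg Subtype.val hx⟩

theorem frob_vanish (hc : ∀ x ∈ Q, x ≠ 1 → Subgroup.centralizer {x} = Q) {ψ : IrrCharacter G}
    (hψ : ¬ Q ≤ H6.charKer (ψ : G → ℂ)) {g : G} (hg : g ∉ Q) : (ψ : G → ℂ) g = 0 := by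
  refine H87.eq_zero_of_const_on_coset ψ.2 Q hψ fun n hn => ?_
  obtain ⟨x, -, rfl⟩ := exists_commutator_eq hc (fun h => hg (inv_mem_iff.1 h)) hn
  rw [← H33.irr_isClassFunction ψ g x]
  group

theorem frob_degree (hc : ∀ x ∈ Q, x ≠ 1 → Subgroup.centralizer {x} = Q) {ψ : IrrCharacter G}
    (hψ : ¬ Q ≤ H6.charKer (ψ : G → ℂ)) : (ψ : G → ℂ) 1 = Q.index := by
  have hab : ∀ a b : Q, a * b = b * a := fun a b => by
    by_cases h : b = 1
    · simp [h]
    · exact Subtype.ext (Subgroup.mem_centralizer_singleton_iff.1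
        ((hc b b.2 fun h0 => h (Subtype.ext h0)).symm ▸ a.2))
  obtain ⟨θ, hθ, h0⟩ := H87.exists_constituent_res ψ.2 Q
  have h1 := H6.irr_one_eq_one_of_comm hab hθ
  have hm := H6.char_mul_of_one_eq_one (H6.irr_isCharacter hθ) h1
  have hin : H7.inertia θ ≤ Q := fun g hg => by
    by_contra hgQ
    refine h0 ?_
    have : θ = fun _ => 1 := funext fun y => by
      obtain ⟨x, hx, h2⟩ := exists_commutator_eq hc hgQ y.2
      have h3 : y = ⟨g * x * g⁻¹, hQ.conj_mem x hx g⟩ * (⟨x, hx⟩ : Q)⁻¹ := Subtype.ext h2.symm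
      rw [h3, hm, H7.mem_inertia'.1 hg ⟨x, hx⟩, ← hm, mul_inv_cancel, h1]
    rw [this]
    exact H87.inner_res_one_eq_zero ψ.2 Q hψ
  have h2 := H7.classInner_indFun_self_normal hθ
  rw [Subgroup.relIndex_eq_one.2 hin, Nat.cast_one] at h2
  have h3 : indFun Q θ 1 = Q.index := by rw [H7.indFun_one, h1, mul_one]
  have h4 := H6.isIrr_of_gen_of_inner_self
    (H6.char_isGen (H7.isCharacter_indFun Q (H6.irr_isCharacter hθ))) h2 (by rw [h3]; simp)
  rw [← H7.classInner_indFun_right Q θ (H33.irr_isClassFunction ψ)] at h0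
  by_contra h5
  exact h0 (H6.irr_inner_ne ψ.2 h4 fun h6 => h5 (h6 ▸ h3))

theorem exists_DL_frob (hP : IsPGroup p Q) (h1 : Q ≠ ⊥) (hi : ¬ p ∣ Q.index)
    (hc : ∀ x ∈ Q, x ≠ 1 → Subgroup.centralizer {x} = Q) (hcomm : commutator G ≤ Q) :
    ∃ D : DL p (Set.univ : Set (IrrCharacter G)) Q.index (Nat.card Q),
      ∀ η, η ∈ D.Y ↔ ¬ Q ≤ H6.charKer (η : G → ℂ) := by
  classical
  set X := Finset.univ.filter fun χ : IrrCharacter G => Q ≤ H6.charKer (χ : G → ℂ) with hX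
  set Y := Finset.univ.filter fun χ : IrrCharacter G => ¬ Q ≤ H6.charKer (χ : G → ℂ) with hY
  have mX : ∀ χ, χ ∈ X ↔ Q ≤ H6.charKer (χ : G → ℂ) := fun χ => by simp [hX]
  have mY : ∀ χ, χ ∈ Y ↔ ¬ Q ≤ H6.charKer (χ : G → ℂ) := fun χ => by simp [hY]
  have dX : ∀ χ ∈ X, charDegree (χ : G → ℂ) = 1 := fun χ hχ =>
    H87.deg_eq_one_of_commutator_le χ.2 (hcomm.trans ((mX χ).1 hχ))
  have oX : ∀ χ ∈ X, (χ : G → ℂ) 1 = 1 := fun χ hχ => by
    rw [H33.irr_one_eq_charDegree, dX χ hχ, Nat.cast_one]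
  have cX : X.card = Q.index := by
    rw [← H87.sum_deg_sq_ker Q, Finset.card_eq_sum_ones]
    exact Finset.sum_congr (by convert rfl) fun χ hχ => by
      rw [dX χ (by convert hχ), one_pow]
  have cY : Q.index * Y.card + 1 = Nat.card Q := by
    have h2 := H87.sum_deg_sq_not_ker Q
    rw [Finset.sum_congr (s₂ := Y) (g := fun _ => Q.index ^ 2) (by convert rfl) fun χ hχ => by
      rw [H87.deg_of_eq (frob_degree hc ((mY χ).1 hχ))], Finset.sum_const, smul_eq_mul,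
      ← Q.index_mul_card] at h2
    refine Nat.eq_of_mul_eq_mul_left (Nat.pos_of_ne_zero Q.index_ne_zero_of_finite) ?_
    rw [← h2]; ring
  have hsing : ∀ g : G, p ∣ orderOf g → g ∈ Q := fun g hg => by
    have h2 : pPart p g ∈ Q := by
      rw [← QuotientGroup.eq_one_iff, ← orderOf_eq_one_iff]
      obtain ⟨k, hk⟩ := isPElt_iff_pow.1 (isPElt_pPart p g)
      have h3 : ((pPart p g : G) : G ⧸ Q) ^ p ^ k = 1 := by rw [← QuotientGroup.mk_pow, hk]; rfl
      exact Nat.Coprime.eq_one_of_dvd (Nat.Coprime.coprime_dvd_left (orderOf_dvd_of_pow_eq_one h3)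
        (((Nat.Prime.coprime_iff_not_dvd hp.out).2 hi).pow_left k))
        (orderOf_dvd_natCard (G := G ⧸ Q) _)
    rw [← hc _ h2 ((pPart_ne_one_iff p).2 hg), Subgroup.mem_centralizer_singleton_iff]
    obtain ⟨k, hk⟩ := Subgroup.mem_zpowers_iff.1 (pPart_mem_zpowers p g)
    rw [← hk]
    exact (Commute.refl g).zpow_right k
  refine ⟨⟨X, Y, fun _ => 1, 1, fun _ _ => trivial, fun ψ => by rw [mX, mY]; simp, cX, cY, ?_,
    Or.inl rfl, fun _ _ => Or.inl rfl, fun χ hχ χ' hχ' g hg => ?_, fun ψ hψ g hg => ?_,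
    fun χ hχ => by rw [H84.blockHeight_eq, dX χ hχ]; simp⟩, mY⟩
  · rw [← Finset.card_pos, Nat.pos_iff_ne_zero]
    intro h0
    rw [h0, mul_zero, zero_add] at cY
    exact h1 (Subgroup.card_eq_one.1 cY.symm)
  · rw [(H6.mem_charKer (H6.irr_isCharacter χ.2)).1 ((mX χ).1 hχ (hsing g hg)),
      (H6.mem_charKer (H6.irr_isCharacter χ'.2)).1 ((mX χ').1 hχ' (hsing g hg)), oX χ hχ,
      oX χ' hχ']
  · simp only [Int.cast_one, one_mul]
    by_cases h0 : g = 1
    · rw [h0, frob_degree hc ((mY ψ).1 hψ), Finset.sum_congr rfl oX, Finset.sum_const, cX]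
      simp
    · have hgQ : g ∉ Q := fun h2 => h0 (by
        rw [← pPart_eq_self (isPElt_of_mem hP h2), pPart_eq_one hg])
      have h3 := H87.sum_ker_mul_conj_of_not_isConj Q (g := g) (h := 1) fun h3 =>
        hgQ ((QuotientGroup.eq_one_iff g).1 (isConj_one_left.1 h3))
      rw [frob_vanish hc ((mY ψ).1 hψ) hgQ, ← h3]
      exact Finset.sum_congr (by convert rfl) fun χ hχ => by rw [oX χ hχ, map_one, mul_one]

end H35C
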